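import Cfsg.Agent.DCE.Th.XA
import Cfsg.Agent.DCE.Th.XB
import Cfsg.Agent.DCE.Th.Main

set_option autoImplicit false
set_option maxRecDepth 100000
set_option Elab.async false

namespace Cfsg.Agent.DCE.Th
open Cfsg.Agent.Comp  Cfsg.Agent.DCE

variable {Γ : Type} [Group Γ] {σ : Γ →* G} {r : ℕ → Γ}

/-- lifts of the letters to a central extension -/
structure Lf (σ : Γ →* G) (r : ℕ → Γ) : Prop where
  c : σ.ker ≤ Subgroup.center Γ
  map : ∀ x < 16, σ (r x) = s x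
  inv : ∀ y < 16, invL iv y < 16 ∧ r (invL iv y) = (r y)⁻¹

theorem Lf.ev (D : Lf σ r) {w : List ℕ} (hw : ltB 16 w = true) : σ (ev r w) = ev s w :=
  (map_ev _ σ w).trans (ev_congr fun x hx => D.map x (ltB_spec hw x hx))

/-- a relator or the inverse of one -/
def cenB (w : List ℕ) : Bool := ltB 16 w && (R.contains w || R.contains (invW iv w))

theorem Lf.cen (D : Lf σ r) {w : List ℕ} (h : cenB w = true) : σ (Comp.ev r w) = 1 := by
  simp only [cenB, Bool.and_eq_true, Bool.or_eq_true, List.contains_iff_mem] at h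
  rw [D.ev h.1]
  rcases h.2 with e | e
  · exact pres.sat _ e
  · have := pres.sat _ e
    rwa [ev_invW s_inv (ltB_spec h.1), inv_eq_one] at this

/-- the relator holds for the lifts -/
def okR (K tw : List (List ℕ)) (w : List ℕ) : Bool :=
  red 16 iv (subst tw w) == [] || K.contains (subst tw w) ||
    match w with
    | [p, q, p', q'] => cenB (tw.getD p []) && red 16 iv (tw.getD p [] ++ tw.getD p' []) == [] &&
        red 16 iv (tw.getD q [] ++ tw.getD q' []) == []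
    | _ => false

theorem Lf.kill (D : Lf σ r) {K R' W V : List (List ℕ)} (hK : Sat r K) (M : MemW.{0} R' W V)
    (tw : List (List ℕ))
    (hW : ∀ g ∈ genW (fun x => Comp.ev r (tw.getD x [])) W, σ g = 1 → g = 1)
    (h : (R'.all (okR K tw) && V.all fun w => w.all fun x => cenB (tw.getD x [])) = true) :
    Sat r (V.map (subst tw)) := by
  simp only [Bool.and_eq_true, List.all_eq_true] at h
  have k : ∀ w, red 16 iv w = [] → Comp.ev r w = 1 := fun w e => by rw [← ev_red D.inv, e, ev_nil]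
  have h1 : Sat (fun x => Comp.ev r (tw.getD x [])) R' := fun w hw => by
    have := h.1 w hw
    simp only [okR, Bool.or_eq_true, beq_iff_eq, List.contains_iff_mem] at this
    rcases this with (e | e) | e
    · rw [← ev_subst, k _ e]
    · rw [← ev_subst, hK _ e]
    · split at e
      · simp only [Bool.and_eq_true, beq_iff_eq] at e
        have a := k _ e.1.2
        have b := k _ e.2
        rw [ev_append, mul_eq_one_iff_eq_inv'] at a b
        simp only [ev_cons, ev_nil, mul_one]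
        rw [a, b, ← mul_assoc, ← Subgroup.mem_center_iff.mp (D.c (D.cen e.1.1))]
        group
      · exact absurd e (by simp)
  intro u hu
  obtain ⟨w, hw, rfl⟩ := List.mem_map.mp hu
  rw [ev_subst]
  exact hW _ (M Γ _ h1 w hw) (ev_mem (K := σ.ker) fun x hx => D.cen (h.2 w hw x hx))

theorem Lf.eta (D : Lf σ r) {η : H →* Γ} (hη : ∀ x < 14, η (h x) = r x) (g : H) :
    σ (η g) = io g := by
  have : gen h 14 ≤ (σ.comp η).eqLocus io := gen_le.mpr fun x hx => by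
    change σ (η (h x)) = io (h x)
    rw [hη x hx, D.map x (by omega), io_h x hx]
  exact this (presH.top ▸ Subgroup.mem_top g)

theorem Lf.exact (D : Lf σ r) {η : H →* Γ} (hη : ∀ x < 14, η (h x) = r x) {tw W : List (List ℕ)}
    (hB : (W.all fun w => w.all fun x => ltB 14 (tw.getD x [])) = true) :
    ∀ g ∈ genW (fun x => Comp.ev r (tw.getD x [])) W, σ g = 1 → g = 1 := fun g hg e => by
  simp only [List.all_eq_true] at hB
  obtain ⟨k, rfl⟩ : g ∈ η.range := (genW_le (K := η.range)).mpr (fun w hw => ev_mem fun x hx =>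
    ev_mem (K := η.range) fun y hy => ⟨h y, hη y (ltB_spec (hB w hw x hx) y hy)⟩) hg
  rw [D.eta hη, ← map_one io] at e
  rw [io_inj e, map_one]

theorem ev_shift {y : ℕ → Γ} (hy : ∀ x, y x ∈ Subgroup.center Γ) (w : List ℕ) :
    ev (fun x => r x * y x) w = ev r w * ev y w := by
  induction w with
  | nil => simp
  | cons a w ih =>
    rw [ev_cons, ev_cons, ev_cons, ih, mul_assoc, mul_assoc, ← mul_assoc (y a),
      ← Subgroup.mem_center_iff.mp (hy a), mul_assoc]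

theorem ev_perm {y : ℕ → Γ} (hy : ∀ x, y x ∈ Subgroup.center Γ) {w w' : List ℕ} (h : w.Perm w') :
    ev y w = ev y w' := by
  induction h with
  | nil => rfl
  | cons a _ ih => rw [ev_cons, ev_cons, ih]
  | swap a b l =>
    simp only [ev_cons]
    rw [← mul_assoc, Subgroup.mem_center_iff.mp (hy a), mul_assoc]
  | trans _ _ h1 h2 => rw [h1, h2]

/-- letters in inverse pairs -/
def sy (c : ℕ → Γ) (x : ℕ) : Γ := if x % 2 = 0 then c (x / 2) else (c (x / 2))⁻¹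

theorem sy_inv (c : ℕ → Γ) : ∀ y < 16, invL iv y < 16 ∧ sy c (invL iv y) = (sy c y)⁻¹ := fun y hy => by
  obtain ⟨h1, h2, h3⟩ := (by decide +kernel : ∀ y < 16, invL iv y < 16 ∧ invL iv y / 2 = y / 2 ∧
    (invL iv y % 2 = 0 ↔ ¬ y % 2 = 0)) y hy
  refine ⟨h1, ?_⟩
  simp only [sy, h2, h3]
  split_ifs <;> simp

def DN : List (List Nat × List (Nat × Nat × Nat × Nat)) :=
  [([0, 7, 5, 7, 5, 7, 5, 7, 5, 4, 4, 4, 4, 6, 6, 6, 6], [(0, 26, 1, 0), (0, 18, 1, 0), (0, 18, 1, 0), (0, 19, 1, 0), (0, 19, 1, 0)]),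
   ([0, 2, 0, 2, 0, 2, 3, 3, 1, 1, 7, 7, 7, 7, 5, 5, 5, 5, 4, 6, 4, 6, 4, 6, 4, 6, 1], [(0, 21, 1, 0), (0, 17, 0, 0), (0, 16, 0, 0), (0, 55, 0, 0)]),
   ([2, 4, 2, 4, 2, 4, 5, 5, 3, 3, 0, 7, 5, 7, 5, 7, 5, 7, 5, 4, 4, 4, 4, 6, 6, 6, 6, 0, 0, 2, 2, 3, 1, 3, 1, 3, 1], [(0, 23, 1, 0), (0, 18, 0, 0), (0, 17, 0, 0), (0, 56, 0, 0)]),
   ([6, 8, 6, 8, 6, 8, 7, 7, 9, 11, 8, 11, 11, 9, 10, 10, 10, 9, 11, 8, 11, 11, 9, 10, 10, 10, 9, 11, 8, 11, 11, 9, 10, 10, 10], [(0, 28, 1, 0), (0, 19, 0, 0), (0, 35, 1, 0), (0, 35, 1, 0), (0, 35, 1, 0)]),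
   ([11, 11, 11, 8, 10, 10, 9, 10, 8], [(0, 35, 0, 0)]),
   ([10, 10, 10, 10, 10, 10, 10, 7, 11, 7, 11, 7, 11, 7, 11, 7, 11, 7, 11, 6, 6, 6, 6, 6, 6], [(0, 30, 1, 0), (0, 34, 0, 0), (0, 34, 0, 0), (0, 34, 0, 0), (0, 19, 1, 0), (0, 19, 1, 0), (0, 19, 1, 0)]),
   ([12, 12, 12, 13, 15, 13, 14], [(0, 36, 1, 0), (0, 50, 0, 0)]),
   ([7, 7, 10, 6, 10, 6, 7, 7, 10, 6, 10, 6, 11, 11, 11, 11, 11, 11, 11, 0, 4, 15, 15, 14, 10, 14, 10, 14, 10, 5, 1], [(0, 19, 0, 0), (0, 34, 1, 0), (0, 19, 0, 0), (0, 34, 1, 0), (0, 30, 0, 0), (0, 43, 0, 0), (0, 52, 0, 0)])]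

/-- the normalising words -/
def NW : List (List Nat) := DN.map Prod.fst

theorem satN : Sat s NW := sat_der (L := 16) (iv := iv) pres.sat DN (by decide +kernel)

/-- sorted form -/
def srt (w : List ℕ) : List ℕ := (List.range 16).flatMap fun x => List.replicate (w.count x) x

def K0 : List (List Nat) := R.take 16 ++ NW

theorem exists_norm (h1 : Function.Surjective σ) (hc : σ.ker ≤ Subgroup.center Γ) :
    ∃ r, Lf σ r ∧ Sat r K0 := by
  choose r0 hr0 using fun g : ℕ => h1 (s (2 * g))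
  have D : Lf σ (sy r0) := ⟨hc, fun x hx => by
    obtain e | e := (by decide +kernel : ∀ x < 16, x % 2 = 0 ∧ 2 * (x / 2) = x ∨
      ¬ x % 2 = 0 ∧ invL iv (2 * (x / 2)) = x) x hx
    · rw [sy, if_pos e.1, hr0, e.2]
    · rw [sy, if_neg e.1, map_inv, hr0, ← (s_inv _ (by omega)).2, e.2], sy_inv r0⟩
  have hN : ∀ g, ltB 16 (NW.getD g []) = true ∧ ev s (NW.getD g []) = 1 := fun g => by
    rcases getD_mem NW g [] with e | e
    · rw [e]; exact ⟨rfl, rfl⟩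
    · exact ⟨(by decide +kernel : ∀ w ∈ NW, ltB 16 w = true) _ e, satN _ e⟩
  let c : ℕ → Γ := fun g => (ev (sy r0) (NW.getD g []))⁻¹
  have hk : ∀ x, sy c x ∈ σ.ker := fun x => by
    have : c (x / 2) ∈ σ.ker := inv_mem ((D.ev (hN _).1).trans (hN _).2)
    unfold sy
    split_ifs
    exacts [this, inv_mem this]
  have D' : Lf σ fun x => sy r0 x * sy c x := ⟨hc, fun x hx => by
    rw [map_mul, D.map x hx, show σ (sy c x) = 1 from hk x, mul_one], fun y hy => by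
    refine ⟨(D.inv y hy).1, ?_⟩
    rw [(D.inv y hy).2, (sy_inv c y hy).2, Subgroup.mem_center_iff.mp (hc (hk y)), mul_inv_rev]⟩
  refine ⟨_, D', Sat.append (fun w hw => ?_) fun w hw => ?_⟩
  · rw [← ev_red D'.inv, (by decide +kernel : ∀ w ∈ R.take 16, red 16 iv w = []) w hw, ev_nil]
  · obtain ⟨g, -, rfl, e1, e2, e3⟩ := (by decide +kernel : ∀ w ∈ NW, ∃ g < 8, w = NW.getD g [] ∧
      w.isPerm (srt w) = true ∧ red 16 iv (srt w) = [2 * g] ∧ 2 * g / 2 = g) w hw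
    rw [ev_shift fun x => hc (hk x), ev_perm (fun x => hc (hk x)) (List.isPerm_iff.mp e1),
      ← ev_red (sy_inv c) (srt _), e2, ev_single, sy, if_pos (by omega), e3, mul_inv_cancel]

def DL1 : List (List Nat × List (Nat × Nat × Nat × Nat)) :=
  [([9, 11, 8, 11, 11, 9, 10, 10, 10], [(0, 20, 0, 0)]),
   ([6, 8, 6, 8, 6, 8, 7, 7], [(0, 19, 1, 0), (0, 20, 1, 0), (0, 20, 1, 0), (0, 20, 1, 0)])]

def tv1 : List (List Nat) := [[6], [7], [8], [9], [10], [11], [6, 6], [7, 7], [8, 8], [9, 9], [6, 8, 6, 8, 6, 8], [9, 7, 9, 7, 9, 7], [10, 10, 10, 10, 10, 10, 10], [11, 11, 11, 11, 11, 11, 11], [10, 6, 10, 6], [7, 11, 7, 11]]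

def K1 : List (List Nat) := K0 ++ DL1.map Prod.fst ++ X1.V.map (subst tv1)

theorem Lf.k1 (D : Lf σ r) (h : Sat r K0) : Sat r K1 :=
  have h1 := h.append (sat_der (L := 16) (iv := iv) h DL1 (by decide +kernel))
  h1.append (D.kill h1 X1.mem tv1 (by rw [show X1.W = [] from rfl, genW_nil]; exact fun g hg _ => hg) (by decide +kernel))

def DL2 : List (List Nat × List (Nat × Nat × Nat × Nat)) :=
  [([0, 7, 5, 7, 5, 7, 5, 7, 5, 4, 4, 4, 4], [(0, 16, 1, 0), (0, 26, 0, 0), (0, 26, 0, 0)]),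
   ([0, 2, 0, 2, 0, 2, 3, 3, 1, 1], [(0, 17, 1, 0), (0, 16, 1, 0)]),
   ([2, 4, 2, 4, 2, 4, 5, 5, 3, 3], [(0, 18, 1, 0), (0, 17, 1, 0)])]

def tv2 : List (List Nat) := [[0], [1], [2], [3], [4], [5], [6], [7], [8], [9], [0, 0], [1, 1], [2, 2], [3, 3], [4, 4], [5, 5], [0, 8, 0, 8], [9, 1, 9, 1], [2, 6, 2, 6], [7, 3, 7, 3], [2, 8, 2, 8], [9, 3, 9, 3], [4, 8, 4, 8], [9, 5, 9, 5], [2, 4, 6, 8, 2, 4, 6, 8, 2, 4, 6, 8, 2, 4, 6, 8, 2, 4, 6, 8, 2, 4, 6, 8, 2, 4, 6, 8, 2, 4, 6, 8], [9, 7, 5, 3, 9, 7, 5, 3, 9, 7, 5, 3, 9, 7, 5, 3, 9, 7, 5, 3, 9, 7, 5, 3, 9, 7, 5, 3, 9, 7, 5, 3]]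

def K2 : List (List Nat) := K1 ++ DL2.map Prod.fst ++ X2.V.map (subst tv2)

theorem Lf.k2 (D : Lf σ r) (h : Sat r K1) : Sat r K2 :=
  have h1 := h.append (sat_der (L := 16) (iv := iv) h DL2 (by decide +kernel))
  h1.append (D.kill h1 X2.mem tv2 (by rw [show X2.W = [] from rfl, genW_nil]; exact fun g hg _ => hg) (by decide +kernel))

def DL3 : List (List Nat × List (Nat × Nat × Nat × Nat)) :=
  [([0, 7, 5, 7, 5, 7, 5, 7, 5], [(0, 16, 1, 0), (0, 26, 0, 0), (0, 26, 0, 0), (0, 36, 0, 0), (0, 36, 0, 0)]),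
   ([0, 2, 0, 2, 0, 2], [(0, 17, 1, 0), (0, 16, 1, 0), (0, 34, 1, 0), (0, 35, 1, 0)]),
   ([2, 4, 2, 4, 2, 4], [(0, 18, 1, 0), (0, 17, 1, 0), (0, 35, 1, 0), (0, 36, 1, 0)])]

def tv3 : List (List Nat) := [[0], [1], [2], [3], [4], [5], [10], [11], [11, 1, 10, 0], [1, 11, 0, 10], [11, 3, 10, 2], [3, 11, 2, 10], [11, 5, 10, 4], [5, 11, 4, 10]]

def K3 : List (List Nat) := K2 ++ DL3.map Prod.fst ++ X3.V.map (subst tv3)

theorem Lf.k3 (D : Lf σ r) (h : Sat r K2) : Sat r K3 :=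
  have h1 := h.append (sat_der (L := 16) (iv := iv) h DL3 (by decide +kernel))
  h1.append (D.kill h1 X3.mem tv3 (by rw [show X3.W = [] from rfl, genW_nil]; exact fun g hg _ => hg) (by decide +kernel))

def DL4 : List (List Nat × List (Nat × Nat × Nat × Nat)) :=
  [([15, 12, 14, 12, 13, 13, 13], [(0, 22, 0, 0)])]

def tv4 : List (List Nat) := [[12], [13], [14], [15], [12, 12, 12], [13, 13, 13]]

def K4 : List (List Nat) := K3 ++ DL4.map Prod.fst ++ X4.V.map (subst tv4)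

theorem Lf.k4 (D : Lf σ r) (h : Sat r K3) : Sat r K4 :=
  have h1 := h.append (sat_der (L := 16) (iv := iv) h DL4 (by decide +kernel))
  h1.append (D.kill h1 X4.mem tv4 (by rw [show X4.W = [] from rfl, genW_nil]; exact fun g hg _ => hg) (by decide +kernel))

def DL5 : List (List Nat × List (Nat × Nat × Nat × Nat)) :=
  [([15, 12, 14, 12], [(0, 48, 1, 0), (0, 49, 1, 0)])]

def tv5 : List (List Nat) := [[0], [1], [2], [3], [4], [5], [6], [7], [8], [9], [10], [11], [12], [13], [13, 1, 12, 0], [1, 13, 0, 12], [13, 3, 12, 2], [3, 13, 2, 12], [13, 5, 12, 4], [5, 13, 4, 12], [13, 7, 12, 6], [7, 13, 6, 12], [13, 9, 12, 8], [9, 13, 8, 12], [13, 10, 12, 11, 11], [10, 10, 13, 11, 12]]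

def K5 : List (List Nat) := K4 ++ DL5.map Prod.fst ++ X5.V.map (subst tv5)

theorem Lf.k5 (D : Lf σ r) (h : Sat r K4) : Sat r K5 :=
  have h1 := h.append (sat_der (L := 16) (iv := iv) h DL5 (by decide +kernel))
  h1.append (D.kill h1 X5.mem tv5 (by rw [show X5.W = [] from rfl, genW_nil]; exact fun g hg _ => hg) (by decide +kernel))

def DL6 : List (List Nat × List (Nat × Nat × Nat × Nat)) :=
  [([0, 4, 11, 15, 11, 15, 11, 15, 14, 14, 5, 1], [(0, 23, 0, 0), (0, 26, 0, 0), (0, 30, 1, 0), (0, 26, 0, 0), (0, 30, 1, 0), (0, 29, 0, 0)])]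

def tv6 : List (List Nat) := [[0], [1], [4], [5], [6], [7], [8], [9], [10], [11], [12], [13], [14], [15], [14, 14, 5, 1], [0, 4, 15, 15], [15, 1, 14, 0], [1, 15, 0, 14], [15, 5, 14, 4], [5, 15, 4, 14], [15, 9, 14, 8], [9, 15, 8, 14], [6, 8, 15, 6, 14, 6, 8, 15, 6, 14], [15, 7, 14, 9, 7, 15, 7, 14, 9, 7], [9, 11, 11, 15, 10, 10, 8, 11, 11, 14, 10, 10], [11, 11, 15, 10, 10, 9, 11, 11, 14, 10, 10, 8], [0, 4, 11, 15, 10, 14, 11, 15, 10, 14, 11, 15, 10, 14, 11, 15, 10, 14], [15, 11, 14, 10, 15, 11, 14, 10, 15, 11, 14, 10, 15, 11, 14, 10, 5, 1], [6, 11, 11, 14, 10, 10, 6, 11, 11, 14, 10, 10, 6, 11, 11, 14, 10, 10, 6, 11, 11, 14, 9, 7, 5, 6, 8, 10, 10, 10, 9, 7, 5, 6, 8, 11, 7, 5, 6, 5, 1], [0, 4, 7, 4, 6, 10, 9, 7, 4, 6, 8, 11, 11, 11, 9, 7, 4, 6, 8, 15, 10, 10, 7, 11, 11, 15, 10, 10, 7, 11, 11, 15, 10, 10, 7, 11, 11, 15, 10, 10, 7]]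

def K6 : List (List Nat) := K5 ++ DL6.map Prod.fst ++ X6.V.map (subst tv6)

theorem Lf.k6 (D : Lf σ r) {η : H →* Γ} (hη : ∀ x < 14, η (h x) = r x) (h : Sat r K5) : Sat r K6 :=
  have h1 := h.append (sat_der (L := 16) (iv := iv) h DL6 (by decide +kernel))
  h1.append (D.kill h1 X6.mem tv6 (D.exact hη (by decide +kernel)) (by decide +kernel))

def DL7 : List (List Nat × List (Nat × Nat × Nat × Nat)) :=
  []

def tv7 : List (List Nat) := [[0], [1], [2], [3], [4], [5], [6], [7], [8], [9], [14], [15], [14, 14, 5, 1], [0, 4, 15, 15], [15, 3, 5, 1, 2, 14, 3, 0, 4, 2, 9], [8, 3, 5, 1, 2, 15, 3, 0, 4, 2, 14], [7, 15, 6, 3, 5, 1, 2, 7, 14, 6, 3, 0, 4, 2, 5, 9, 7, 15, 6, 3, 5, 1, 2, 9, 15], [14, 8, 3, 0, 4, 2, 7, 14, 6, 8, 4, 3, 5, 1, 2, 7, 15, 6, 3, 0, 4, 2, 7, 14, 6]]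

def K7 : List (List Nat) := K6 ++ DL7.map Prod.fst ++ X7.V.map (subst tv7)

theorem Lf.k7 (D : Lf σ r) {η : H →* Γ} (hη : ∀ x < 14, η (h x) = r x) (h : Sat r K6) : Sat r K7 :=
  have h1 := h.append (sat_der (L := 16) (iv := iv) h DL7 (by decide +kernel))
  h1.append (D.kill h1 X7.mem tv7 (D.exact hη (by decide +kernel)) (by decide +kernel))

def DL8 : List (List Nat × List (Nat × Nat × Nat × Nat)) :=
  [([15, 9, 14, 8], [(0, 62, 1, 0), (0, 66, 0, 0)]),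
   ([9, 11, 11, 15, 10, 10, 8, 11, 11, 14, 10, 10], [(0, 63, 1, 0), (0, 66, 0, 0)]),
   ([0, 4, 11, 15, 11, 15, 11, 15], [(0, 57, 1, 0), (0, 66, 0, 0)]),
   ([0, 4, 11, 15, 10, 14, 11, 15, 10, 14, 11, 15, 10, 14, 11, 15, 10, 14], [(0, 64, 1, 0), (0, 66, 0, 0)]),
   ([6, 11, 11, 14, 10, 10, 6, 11, 11, 14, 10, 10, 6, 11, 11, 14, 10, 10, 6, 11, 11, 14, 9, 7, 5, 6, 8, 10, 10, 10, 9, 7, 5, 6, 8, 11, 7, 5, 6, 5, 1], [(0, 65, 1, 0), (0, 66, 0, 0)])]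

theorem Lf.most (D : Lf σ r) (h0 : Sat r K0) : ∃ η : H →* Γ, (∀ x < 14, η (h x) = r x) ∧
    Sat r (R.set 48 []) ∧ Comp.ev r (R.getD 48 []) ^ 2 = 1 := by
  have h5 := D.k5 (D.k4 (D.k3 (D.k2 (D.k1 h0))))
  obtain ⟨η, hη⟩ := presH.univ Γ r (h5.mono (by decide +kernel))
  have h7 := D.k7 hη (D.k6 hη h5)
  have h8 := h7.append (sat_der (L := 16) (iv := iv) h7 DL8 (by decide +kernel))
  refine ⟨η, hη, fun w hw => ?_, ?_⟩
  · rcases (by decide +kernel : ∀ w ∈ R.set 48 [], w = [] ∨ w ∈ K7 ++ DL8.map Prod.fst) w hw with e | e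
    · rw [e, ev_nil]
    · exact h8 w e
  · rw [pow_two, ← ev_append]
    exact h7 _ (by decide +kernel)

end Cfsg.Agent.DCE.Th
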