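import Cfsg.Agent.DCE.Th.Lift
import Cfsg.Agent.H2.Schur2

set_option autoImplicit false
set_option maxRecDepth 100000
set_option Elab.async false

namespace Cfsg.Agent.DCE.Th
open Cfsg.Agent.Comp Cfsg.Agent.DCE Cfsg.Agent.H2.Schur

variable {Γ : Type} [Group Γ] {σ : Γ →* G} {r : ℕ → Γ} {η : H →* Γ}

/-- all relators but one hold -/
structure Mo (σ : Γ →* G) (r : ℕ → Γ) (η : H →* Γ) : Prop where
  lf : Lf σ r
  eta : ∀ x < 14, η (h x) = r x
  sat : Sat r (R.set 48 [])

/-- the consequences that do not use it -/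
def DT' : List (List Nat) := (DT.eraseIdx 8).map Prod.fst

namespace Mo

theorem satT (D : Mo σ r η) : Sat r DT' :=
  sat_der (L := 16) (iv := iv) D.sat (DT.eraseIdx 8) (by decide +kernel)

theorem r15 (D : Mo σ r η) : r 15 = (r 14)⁻¹ := (D.lf.inv 14 (by norm_num)).2

theorem eta_ev (D : Mo σ r η) {w : List ℕ} (hw : ltB 14 w = true) : η (ev ax w) = ev r w :=
  (map_ev _ η w).trans (ev_congr fun x hx => by
    rw [ax_h x (ltB_spec hw x hx), D.eta x (ltB_spec hw x hx)])

theorem cm (D : Mo σ r η) {a b : ℕ} (h : (decide (a < 64) && decide (b < 64) &&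
    (ltB 14 (tw2.getD a []) && ltB 14 (tw2.getD b []) && DT'.contains
      (tw2.getD a [] ++ 14 :: (invW iv (tw2.getD b []) ++ [15])))) = true) :
    η (ax a) * r 14 = r 14 * η (ax b) := by
  simp only [Bool.and_eq_true, List.contains_iff_mem, decide_eq_true_eq] at h
  have := D.satT _ h.2.2
  rw [ev_append, ev_cons, ev_append, ev_single, D.r15,
    ev_invW D.lf.inv fun y hy => (ltB_spec h.2.1.2 y hy).trans (by norm_num)] at this
  rw [ax_eq a h.1.1, ax_eq b h.1.2, D.eta_ev h.2.1.1, D.eta_ev h.2.1.2]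
  generalize ev r (tw2.getD a []) = p at this
  generalize ev r (tw2.getD b []) = q at this
  calc _ = p * (r 14 * (q⁻¹ * (r 14)⁻¹)) * (r 14 * q) := by group
    _ = _ := by rw [this, one_mul]

theorem uinv (D : Mo σ r η) : (r 14)⁻¹ = η (W ax 4165) * r 14 := by
  have := D.satT [14, 5, 1, 14] (by decide +kernel)
  rw [show W ax 4165 = ev ax [5, 1] from rfl, D.eta_ev (by decide +kernel), inv_eq_iff_mul_eq_one,
    ← this]
  simp only [ev_cons, ev_nil, mul_one, mul_assoc]

/-- the check of a relator -/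
def relOK' : List ℕ → Bool
  | [] => true
  | g :: l => l != [] && (g :: l).all (fun c => c % 2 == 0 && ltB 14 (wd 64 30 (c / 2))) &&
      DT'.contains (15 :: (wd 64 30 (g / 2) ++ l.flatMap fun c => 14 :: wd 64 30 (c / 2)))

theorem rel_of (D : Mo σ r η) {gs : List ℕ} (h : relOK' gs = true) : Rel η (r 14) ax gs := by
  rintro g l rfl
  simp only [relOK', Bool.and_eq_true, List.contains_iff_mem, List.all_eq_true, beq_iff_eq,
    bne_iff_ne] at h
  obtain ⟨⟨h1, h2⟩, h3⟩ := h
  have k : ∀ c ∈ g :: l, η (GW ax c) = ev r (wd 64 30 (c / 2)) := fun c hc => by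
    rw [GW, if_pos (h2 c hc).1, W, D.eta_ev (h2 c hc).2]
  have := D.satT _ h3
  rw [ev_cons, D.r15, inv_mul_eq_one, ev_append] at this
  rw [List.forall_mem_cons] at k
  refine ⟨h1, this.trans ?_⟩
  rw [k.1]
  congr 1
  have k2 := k.2
  clear k this h1 h2 h3
  induction l with
  | nil => rfl
  | cons c l ih =>
    rw [List.forall_mem_cons] at k2
    rw [List.flatMap_cons, ev_append, ih k2.2, ev_cons, ← k2.1]
    simp [uprod]

theorem env (D : Mo σ r η) : Env η (r 14) ax enc P1 :=
  ⟨enc_spec.1, enc_spec.2, ax_inv, enc_one, fun d hd => by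
    have := (by decide +kernel : ∀ d < 16, (kl P1.ca d, kl P1.cb d) ∈
      [(0, 0), (4, 4), (8, 8), (22, 22), (12, 13), (13, 12)]) d hd
    simp only [List.mem_cons, Prod.mk.injEq, List.not_mem_nil, or_false] at this
    rcases this with ⟨h1, h2⟩ | ⟨h1, h2⟩ | ⟨h1, h2⟩ | ⟨h1, h2⟩ | ⟨h1, h2⟩ | ⟨h1, h2⟩ <;>
      rw [h1, h2] <;> exact D.cm (by decide +kernel),
    D.uinv, fun gs hg => D.rel_of ((by decide +kernel : ∀ gs ∈ P1.RL, relOK' gs = true) gs hg),
    rfl, rfl⟩

theorem facts (D : Mo σ r η) : Facts η (r 14) ax P1 10 :=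
  D.env.chunk [[nat_lit 0],
    [nat_lit 71],
    [nat_lit 79],
    [nat_lit 83],
    [nat_lit 87],
    [nat_lit 0],
    [nat_lit 90323596987323398, nat_lit 0, nat_lit 317222172859645616455344799764, nat_lit 2, nat_lit 4611686018432450562, nat_lit 3, nat_lit 18907912675552378748948],
    [nat_lit 5297217, nat_lit 4, nat_lit 4611686018507620354, nat_lit 3, nat_lit 18907912675552378748948],
    [nat_lit 1517125826675304733937926, nat_lit 0, nat_lit 316990059102279607653801213972, nat_lit 6, nat_lit 4611686019850584066, nat_lit 3, nat_lit 18907912675552378748948],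
    [nat_lit 1610129766252002029161998, nat_lit 0, nat_lit 317377028715186935917897334805, nat_lit 0, nat_lit 4611686018427404317]] Facts.zero rfl (by decide +kernel)


theorem k18 (D : Mo σ r η) : η (ax 27) * r 14 = r 14 * η (ax 31) := by
  have h1 := D.facts 9 (by norm_num)
  obtain ⟨e1, e2, e3, e4, e5, e6⟩ := (by decide +kernel : fi (rc P1.FT 9) = 1 ∧ fj (rc P1.FT 9) = 1 ∧
    fe (rc P1.FT 9) = 0 ∧ fv (rc P1.FT 9) = 1 ∧ wd 64 30 (fp (rc P1.FT 9)) = tw2.getD 30 [] ∧
    wd 64 30 (fL (rc P1.FT 9)) = tw2.getD 26 [])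
  rw [Fact, e1, e2, e3, e4, D.env.w_one, W_one, W, W, e5, e6, ← ax_eq 30 (by norm_num),
    ← ax_eq 26 (by norm_num), pow_zero, mul_one, map_one, mul_one] at h1
  rw [show ax 27 = _ from ax_inv 26 (by norm_num), show ax 31 = _ from ax_inv 30 (by norm_num),
    map_inv, map_inv, inv_mul_eq_iff_eq_mul, ← mul_assoc, ← h1, mul_inv_cancel_right]

theorem wd_eq {n x : ℕ} (hx : x < 64) (h : mulW TT n P1.z0 = st TT x P1.z0) : W ax n = ax x := by
  rw [env1.z0, enc_spec.2 x hx, show TT = P1.TT from rfl, env1.mulW_eq, one_mul, one_mul] at h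
  exact enc_spec.1 h

theorem wd_one {n : ℕ} (h : mulW TT n P1.z0 = P1.z0) : W ax n = 1 := by
  rw [env1.z0, show TT = P1.TT from rfl, env1.mulW_eq, one_mul] at h
  exact enc_spec.1 h

theorem k24 (D : Mo σ r η) :
    η (ax 24) * r 14 = r 14 * η (ax 28) * ev r (R.getD 48 []) := by
  have hz := Subgroup.mem_center_iff.mp (D.lf.c (D.lf.cen (w := R.getD 48 []) (by decide +kernel)))
  rw [← wd_eq (n := 17305923) (by norm_num) (by decide +kernel),
    ← wd_eq (n := 1107579080) (by norm_num) (by decide +kernel),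
    show W ax 17305923 = ev ax [3, 5, 1, 2] from rfl, show W ax 1107579080 = ev ax [8, 3, 5, 1, 2] from rfl,
    D.eta_ev (by decide +kernel), D.eta_ev (by decide +kernel), mul_assoc, hz, ← mul_assoc,
    ← ev_single r 14]
  simp only [← ev_append]
  rw [← ev_red D.lf.inv (_ ++ _ ++ _)]
  rfl

theorem last (D : Mo σ r η) : ev r (R.getD 48 []) ^ 3 = 1 := by
  have hz := Subgroup.mem_center_iff.mp (D.lf.c (D.lf.cen (w := R.getD 48 []) (by decide +kernel)))
  have k24 := D.k24
  generalize ev r (R.getD 48 []) = z at hz k24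
  have key : ∀ l : List (ℕ × ℕ × ℕ), (∀ e ∈ l, η (ax e.1) * r 14 = r 14 * η (ax e.2.1) * z ^ e.2.2) →
      η (ev ax (l.map (·.1))) * r 14 = r 14 * η (ev ax (l.map (·.2.1))) * z ^ (l.map (·.2.2)).sum := by
    intro l hl
    induction l with
    | nil => simp
    | cons e l ih =>
      rw [List.forall_mem_cons] at hl
      simp only [List.map_cons, ev_cons, map_mul, List.sum_cons]
      rw [mul_assoc, ih hl.2, ← mul_assoc, ← mul_assoc, hl.1, pow_add, mul_assoc _ (z ^ _),
        ← (show Commute _ z from hz _).pow_right]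
      simp only [mul_assoc]
  have := key [(0, 0, 0), (8, 8, 0), (22, 22, 0), (13, 12, 0), (24, 28, 1), (27, 31, 0), (12, 13, 0), (24, 28, 1), (27, 31, 0), (24, 28, 1), (27, 31, 0)] (by
    have a0 := D.cm (a := 0) (b := 0) (by decide +kernel)
    have a8 := D.cm (a := 8) (b := 8) (by decide +kernel)
    have a22 := D.cm (a := 22) (b := 22) (by decide +kernel)
    have a12 := D.cm (a := 12) (b := 13) (by decide +kernel)
    have a13 := D.cm (a := 13) (b := 12) (by decide +kernel)
    simp [a0, a8, a22, a12, a13, k24, D.k18])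
  change η (W ax 105355908714968998400) * _ = _ * η (W ax 110040795892608492032) * z ^ 3 at this
  rw [wd_one (by decide +kernel), wd_one (by decide +kernel)] at this
  simpa using this.symm

end Mo

theorem mult : HasCyclicSchurMultiplier G 1 := by
  have : Finite G := Nat.finite_of_card_ne_zero (by rw [card]; norm_num)
  refine has_one_of fun Γ _ _ σ hσ => ?_
  obtain ⟨r, D, h0⟩ := exists_norm hσ.1 hσ.2.1
  obtain ⟨η, hη, h1, h2⟩ := D.most h0
  have h3 := Mo.last ⟨D, hη, h1⟩
  rw [pow_succ, h2, one_mul] at h3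
  obtain ⟨ψ, hψ⟩ := pres.univ Γ r fun w hw => by
    rcases (by decide +kernel : ∀ w ∈ R, w = R.getD 48 [] ∨ w ∈ R.set 48 []) w hw with e | e
    exacts [e ▸ h3, h1 w e]
  refine ker_eq_bot_of_section hσ (s := ψ) ?_
  have h3 : gen s 16 ≤ (σ.comp ψ).eqLocus (MonoidHom.id G) := gen_le.mpr fun i hi => by
    change σ (ψ (s i)) = s i
    rw [hψ i hi, D.map i hi]
  exact MonoidHom.ext fun g => h3 (pres.top ▸ Subgroup.mem_top g)

end Cfsg.Agent.DCE.Th
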